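import Cfsg.Agent.PF.S7b

/-! Bridges between the coherence library and the frozen coherence vocabulary. -/

set_option autoImplicit false
set_option linter.unusedSectionVars false
set_option linter.style.haveILetI false

open scoped ComplexConjugate Classical commutatorElement
open Cfsg.Agent.H20 Cfsg.Agent.H22 Cfsg.Agent.BG

namespace Cfsg.Agent.PF

variable {Γ : Type*} [Group Γ] [Fintype Γ] {Δ : Type*} [Group Δ] [Fintype Δ]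

/-- an inner-product preserving map on a set extends to a linear map -/
theorem exists_lin_ext (E : Set (Γ → ℂ)) (τ : (Γ → ℂ) → (Δ → ℂ))
    (h : ∀ α ∈ E, ∀ β ∈ E, classInner (τ α) (τ β) = classInner α β) :
    ∃ T : (Γ → ℂ) →ₗ[ℂ] (Δ → ℂ), ∀ α ∈ E, T α = τ α := by
  simp only [← dot_top] at h
  set V : Submodule ℂ ((Γ → ℂ) × (Δ → ℂ)) := Submodule.span ℂ ((fun α => (α, τ α)) '' E) with hV
  have h1 : ∀ p ∈ V, ∀ q ∈ V, dot ⊤ p.2 q.2 = dot ⊤ p.1 q.1 := fun p hp q hq => by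
    induction hp, hq using Submodule.span_induction₂ with
    | mem_mem x y hx hy =>
      obtain ⟨a, ha, rfl⟩ := hx
      obtain ⟨b, hb, rfl⟩ := hy
      exact h a ha b hb
    | zero_left => simp
    | zero_right => simp
    | add_left x y z _ _ _ h1 h2 => simp [h1, h2]
    | add_right x y z _ _ _ h1 h2 => simp [h1, h2]
    | smul_left r x y _ _ h1 => simp [h1]
    | smul_right r x y _ _ h1 => simp [h1]
  have h2 : ∀ p ∈ V, p.1 = 0 → p.2 = 0 := fun p hp e =>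
    eq_zero_of_dot_self (supp_top _) (by rw [h1 p hp p hp, e, dot_zero_left])
  obtain ⟨T, hT⟩ := LinearMap.exists_extend V.toLinearPMap.toFun
  refine ⟨T, fun α hα => ?_⟩
  have h3 : (α, τ α) ∈ V := Submodule.subset_span ⟨α, hα, rfl⟩
  rw [← Submodule.toLinearPMap_graph_eq V h2, LinearPMap.mem_graph_iff] at h3
  obtain ⟨y, h4, h5⟩ := h3
  have := LinearMap.congr_fun hT y
  simp only [LinearMap.comp_apply, Submodule.subtype_apply, h4] at this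
  exact this.trans h5

variable {F F₁ : Finset (Γ → ℂ)} {τ : (Γ → ℂ) → (Δ → ℂ)} {T : (Γ → ℂ) →ₗ[ℂ] (Δ → ℂ)}
  {R : (Γ → ℂ) → Finset (Δ → ℂ)} {α χ : Γ → ℂ}

theorem mem_zspan : α ∈ zspan (F : Set (Γ → ℂ)) ↔ α ∈ ZS F := Iff.rfl

theorem mem_zspanOn : α ∈ zspanOn (F : Set (Γ → ℂ)) {1}ᶜ ↔ α ∈ ZS F ∧ α 1 = 0 := by
  simp [zspanOn, mem_zspan]

theorem isCoherent_of_coh (hT : ∀ α ∈ ZS F, α 1 = 0 → T α = τ α) (h : Coh ⊤ ⊤ F T) (hχ : χ ∈ F)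
    (hχ' : star χ ∈ F) (hc : IsChar ⊤ χ) (hne : star χ ≠ χ) : IsCoherent (F : Set (Γ → ℂ)) {1}ᶜ τ := by
  obtain ⟨ν, hν⟩ := h
  refine ⟨⟨χ - star χ, mem_zspanOn.2 ⟨sub_mem (mem_ZS hχ) (mem_ZS hχ'), by
    rw [Pi.sub_apply, hc.star_one, sub_self]⟩, sub_ne_zero.2 hne.symm⟩, ν,
    ⟨fun α _ β _ => map_add _ _ _, fun α _ n => map_zsmul _ _ _, fun α hα β hβ => ?_,
    fun α hα => mem_VC_top.1 (hν.vc hα)⟩, fun α hα => ?_⟩
  · rw [← dot_top, ← dot_top, hν.dot_eq hα hβ]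
  · rw [mem_zspanOn] at hα
    rw [hν.eq α hα.1 hα.2, hT α hα.1 hα.2]

theorem coh_of_isCoherent (hT : ∀ α ∈ ZS F, α 1 = 0 → T α = τ α)
    (h : IsCoherent (F : Set (Γ → ℂ)) {1}ᶜ τ) : Coh ⊤ ⊤ F T := by
  obtain ⟨-, τ₁, h1, h2⟩ := h
  obtain ⟨ν, hν⟩ := exists_lin_ext _ τ₁ h1.2.2.1
  refine ⟨ν, fun χ hχ φ hφ => ?_, fun χ hχ => ?_, fun α hα e => ?_⟩
  · rw [hν _ (mem_ZS hχ), hν _ (mem_ZS hφ), dot_top, dot_top, h1.2.2.1 _ (mem_ZS hχ) _ (mem_ZS hφ)]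
  · rw [hν _ (mem_ZS hχ)]; exact mem_VC_top.2 (h1.2.2.2 _ (mem_ZS hχ))
  · rw [hν _ hα, h2 α (mem_zspanOn.2 ⟨hα, e⟩), hT α hα e]

theorem exists_iso0 (h : IsLinearIsometryOn (zspanOn (F : Set (Γ → ℂ)) {1}ᶜ) τ)
    (h1 : ∀ α ∈ zspanOn (F : Set (Γ → ℂ)) {1}ᶜ, τ α 1 = 0) :
    ∃ T : (Γ → ℂ) →ₗ[ℂ] (Δ → ℂ), Iso0 ⊤ ⊤ F T ∧ ∀ α ∈ ZS F, α 1 = 0 → T α = τ α := by
  obtain ⟨T, hT⟩ := exists_lin_ext _ τ h.2.2.1
  simp only [IsLinearIsometryOn, mem_zspanOn, and_imp] at h h1 hT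
  refine ⟨T, ⟨fun φ hφ e ψ hψ e' => ?_, fun φ hφ e => ?_, fun φ hφ e => ?_⟩, hT⟩
  · rw [hT φ hφ e, hT ψ hψ e', dot_top, dot_top, h.2.2.1 φ hφ e ψ hψ e']
  · rw [hT φ hφ e]; exact mem_VC_top.2 (h.2.2.2 φ hφ e)
  · rw [hT φ hφ e]; exact h1 φ hφ e

theorem finite_of_system {S : Set (Γ → ℂ)} (h : IsCoherenceSystem S τ R) : S.Finite := by
  have hne : ∀ χ ∈ S, χ ≠ 0 := fun χ hχ e => h.conj_ne χ hχ (by rw [e, conjFun_eq, star_zero])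
  refine LinearIndependent.setFinite (R := ℂ) (linearIndependent_iff'.2 fun s g hs i hi => ?_)
  have := dot_sum_orth (L := ⊤) (s := s) (f := fun i : S => (i : Γ → ℂ)) (fun i _ j _ e => by
    rw [dot_top]; exact h.orthogonal _ i.2 _ j.2 fun e' => e (Subtype.ext e')) g hi
  rw [show ∑ i ∈ s, g i • (i : Γ → ℂ) = 0 from hs, dot_zero_left] at this
  exact (mul_eq_zero.1 this.symm).resolve_right fun e =>
    hne _ i.2 (eq_zero_of_dot_self (supp_top _) e)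

theorem subcoh_of_system (h : IsCoherenceSystem (F : Set (Γ → ℂ)) τ R) :
    ∃ T : (Γ → ℂ) →ₗ[ℂ] (Δ → ℂ), Subcoh ⊤ ⊤ F T R ∧ ∀ α ∈ ZS F, α 1 = 0 → T α = τ α := by
  obtain ⟨T, h1, hT⟩ := exists_iso0 h.isometry h.map_one
  refine ⟨T, ⟨fun χ hχ => isChar_top.2 (h.isCharacter χ hχ), h.conj_mem, h.conj_ne, h1,
    fun χ hχ φ hφ e => by rw [dot_top, h.orthogonal χ hχ φ hφ e],
    fun χ hχ α hα => mem_VC_top.2 (h.virtual χ hχ α hα), fun χ hχ => orthon_of_ite fun α hα β hβ => ?_,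
    fun χ hχ => ?_, fun χ hχ φ hφ e e' α hα β hβ => ?_⟩, hT⟩
  · rw [dot_top]; exact h.orthonormal χ hχ α hα β hβ
  · rw [hT (χ - star χ) (sub_mem (mem_ZS hχ) (mem_ZS (h.conj_mem χ hχ))) (by
      rw [Pi.sub_apply, (isChar_top.2 (h.isCharacter χ hχ)).star_one, sub_self])]
    exact h.sum_eq χ hχ
  · rw [dot_top] at e e' ⊢
    exact h.disjoint χ hχ φ hφ e e' α hα β hβ

theorem system_of_subcoh (h : Subcoh ⊤ ⊤ F T R) (hne : F.Nonempty)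
    (hτ : IsLinearIsometryOn (zspanOn (F : Set (Γ → ℂ)) {1}ᶜ) τ)
    (hT : ∀ α ∈ ZS F, α 1 = 0 → T α = τ α) : IsCoherenceSystem (F : Set (Γ → ℂ)) τ R where
  nonempty := hne
  isCharacter χ hχ := isChar_top.1 (h.char χ hχ)
  conj_mem := h.star_mem
  conj_ne := h.star_ne
  isometry := hτ
  map_one α hα := by
    rw [mem_zspanOn] at hα
    rw [← hT α hα.1 hα.2, h.iso.one α hα.1 hα.2]
  orthogonal χ hχ φ hφ e := by rw [← dot_top, h.orth χ hχ φ hφ e]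
  orthonormal χ hχ α hα β hβ := by rw [← dot_top]; exact (h.R_orthon χ hχ).ite hα hβ
  virtual χ hχ α hα := mem_VC_top.1 (h.R_vc χ hχ α hα)
  sum_eq χ hχ := by
    rw [conjFun_eq, ← hT _ (h.sub_star_mem hχ) (h.sub_star_one hχ), h.sum_eq χ hχ]
  disjoint χ hχ φ hφ e e' α hα β hβ := by
    rw [← dot_top] at e e' ⊢
    exact h.R_orth χ hχ φ hφ e e' α hα β hβ

theorem Subcoh.isCoherent (h : Subcoh ⊤ ⊤ F T R) (hT : ∀ α ∈ ZS F, α 1 = 0 → T α = τ α)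
    (hs : CSub F₁ F) (hne : F₁.Nonempty) (hc : Coh ⊤ ⊤ F₁ T) :
    IsCoherent (F₁ : Set (Γ → ℂ)) {1}ᶜ τ := by
  obtain ⟨χ, hχ⟩ := hne
  exact isCoherent_of_coh (fun α hα => hT α (ZS_mono hs.sub hα)) hc hχ (hs.star_mem hχ)
    (h.char χ (hs.sub hχ)) (h.star_ne χ (hs.sub hχ))

theorem coh_of_isCoherent' (hT : ∀ α ∈ ZS F, α 1 = 0 → T α = τ α) (hs : F₁ ⊆ F)
    (h : IsCoherent (F₁ : Set (Γ → ℂ)) {1}ᶜ τ) : Coh ⊤ ⊤ F₁ T :=
  coh_of_isCoherent (fun α hα => hT α (ZS_mono hs hα)) h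

theorem inducedIrrAbove_eq {K A : Subgroup Γ} (hA : A ≤ K) :
    inducedIrrAbove K A = (seqIndD K ⊤ K A : Set (Γ → ℂ)) := by
  ext φ
  simp only [inducedIrrAbove, Set.mem_ofPred_eq, Finset.mem_coe, mem_seqIndD', mem_IrrKD_self]
  constructor
  · rintro ⟨θ, h1, h2, h3, rfl⟩
    exact ⟨_, ⟨ex_mem_Irr.2 h1, (le_ker_ex_iff h1 hA).2 h3, by rwa [Ne, ex_eq_one_iff]⟩, indFun_eq K θ⟩
  · rintro ⟨θ, ⟨h1, h2, h3⟩, rfl⟩
    have h4 := ex_tr_of_supp (Irr.supp h1)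
    have h5 := (mem_Irr.1 h1).2
    exact ⟨_, h5, by rwa [Ne, ← ex_eq_one_iff, h4], (le_ker_ex_iff h5 hA).1 (by rwa [h4]),
      Ind_top_eq K θ⟩

theorem normalIn_top (K : Subgroup Γ) [K.Normal] : K ⊴ ⊤ := ⟨le_top, top_le_normalizer K⟩

theorem seqIndD_nonempty_top {K M : Subgroup Γ} [M.Normal] (h : M < K) : (seqIndD K ⊤ K M).Nonempty :=
  seqIndD.nonempty ⊤ le_rfl ⟨h.le, le_top.trans (top_le_normalizer M)⟩ h.not_ge

end Cfsg.Agent.PF
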